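import Cfsg.Agent.Lib.Core.Basic
import Cfsg.Agent.Lib.Coprime.Generation
import Cfsg.Agent.Lib.PGroups.NormalRankTwo
import Cfsg.Agent.Lib.Involutions2.NormalFour
import Cfsg.Agent.Lib.ConjFam.Basic
import Cfsg.Prelude.Def_CaseTheorems

/-!
# Normal four-groups in groups of characteristic 2 type

If `U` is a four-group normal in a Sylow 2-subgroup `P` (central when `Z(P)` is not cyclic), in a
group of characteristic 2 type, then `U ≤ O₂(C(u))` for each `u ∈ U#`, and so `U` centralizes
the subgroups of odd order it normalizes.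
-/

set_option autoImplicit false

namespace Cfsg.Agent.Lib.StrongSec.NFour

open Cfsg Subgroup Cfsg.Agent.Lib.ConjFam.Basic Cfsg.Agent.Lib.PLocal.Alperin

variable {G : Type*} [Group G] [Finite G]

local notation "Cz(" z ")" => Subgroup.centralizer ({z} : Set _)

omit [Finite G] in
lemma mem_cz {z g : G} : g ∈ Cz(z) ↔ g * z = z * g := Subgroup.mem_centralizer_singleton_iff

/-- The properties of `O₂(C(z))`. -/
structure CoreData (z : G) (Q : Subgroup G) : Prop where
  pg : IsPGroup 2 Q
  le : Q ≤ Cz(z)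
  nrm : ∀ g ∈ Cz(z), ∀ q ∈ Q, g * q * g⁻¹ ∈ Q
  cent : ∀ g ∈ Cz(z), (∀ q ∈ Q, g * q = q * g) → g ∈ Q
  max : ∀ D : Subgroup G, IsPGroup 2 D → D ≤ Cz(z) → (∀ g ∈ Cz(z), ∀ d ∈ D, g * d * g⁻¹ ∈ D) → D ≤ Q

theorem exists_coreData (h2 : IsCharacteristicTwoType G) {z : G} (hz : orderOf z = 2) :
    ∃ Q : Subgroup G, CoreData z Q := by
  classical
  haveI : Fact (Nat.Prime 2) := ⟨Nat.prime_two⟩
  have hz2 : z ^ 2 = 1 := by
    rw [← hz]
    exact pow_orderOf_eq_one z
  set T : Subgroup G := zpowers z with hT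
  have hTp : IsPGroup 2 T := by
    rw [IsPGroup.iff_card]
    exact ⟨1, by rw [hT, Nat.card_zpowers, hz, pow_one]⟩
  have hTne : T ≠ ⊥ := by
    intro h
    have h1 : z ∈ T := mem_zpowers z
    rw [h, mem_bot] at h1
    rw [h1, orderOf_one] at hz
    omega
  have hmemT : ∀ x, x ∈ T ↔ x = 1 ∨ x = z := by
    intro x
    constructor
    · exact Cfsg.Agent.Lib.Involutions2.NormalFour.mem_zpowers_of_sq hz2
    · rintro (rfl | rfl)
      · exact T.one_mem
      · exact mem_zpowers _
  have hconj1 : ∀ g x : G, g * x * g⁻¹ = 1 → x = 1 := by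
    intro g x h
    have e : x = g⁻¹ * (g * x * g⁻¹) * g := by group
    rw [e, h]
    group
  have hN : ∀ g, g ∈ normalizer (T : Set G) ↔ g ∈ Cz(z) := by
    intro g
    rw [mem_normalizer_iff, mem_cz]
    constructor
    · intro h
      have h1 := (h z).1 (mem_zpowers z)
      rcases (hmemT _).1 h1 with h3 | h3
      · exfalso
        have := hconj1 _ _ h3
        rw [this, orderOf_one] at hz
        omega
      · calc g * z = g * z * g⁻¹ * g := by group
          _ = z * g := by rw [h3]
    · intro h x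
      have h3 : g * z * g⁻¹ = z := by
        rw [h]
        group
      change x ∈ T ↔ g * x * g⁻¹ ∈ T
      rw [hmemT, hmemT]
      constructor
      · rintro (rfl | rfl)
        · left
          group
        · right
          exact h3
      · rintro (h4 | h4)
        · left
          exact hconj1 _ _ h4
        · right
          rw [← h3] at h4
          have h5 := mul_right_cancel h4
          exact mul_left_cancel h5
  set Nn : Subgroup G := normalizer (T : Set G) with hNn
  have hchar : IsOfCharacteristicTwo ↥Nn := h2.2 T hTp hTne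
  have hcoreN : (pCore 2 ↥Nn).Normal := inferInstance
  refine ⟨(pCore 2 ↥Nn).map Nn.subtype, ?_, ?_, ?_, ?_, ?_⟩
  · rintro ⟨x, y, hy, rfl⟩
    obtain ⟨k, hk⟩ := (Cfsg.Agent.Lib.Core.Basic.pCore_isPGroup (p := 2) (G := ↥Nn)) ⟨y, hy⟩
    refine ⟨k, Subtype.ext ?_⟩
    have h3 := congrArg (fun w : pCore 2 ↥Nn => ((w : ↥Nn) : G)) hk
    simpa using h3
  · rintro _ ⟨y, _, rfl⟩
    exact (hN _).1 y.2
  · rintro g hg _ ⟨y, hy, rfl⟩
    have hg' : g ∈ Nn := (hN g).2 hg
    have h3 := hcoreN.conj_mem y hy ⟨g, hg'⟩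
    exact ⟨_, h3, by simp⟩
  · intro g hg hc
    have hg' : g ∈ Nn := (hN g).2 hg
    have h3 : (⟨g, hg'⟩ : ↥Nn) ∈ pCore 2 ↥Nn := by
      apply hchar
      rw [mem_centralizer_iff]
      intro y hy
      apply Subtype.ext
      have := hc y ⟨y, hy, rfl⟩
      exact this.symm
    exact ⟨_, h3, rfl⟩
  · intro D hDp hDz hDn d hd
    have hdN : d ∈ Nn := (hN d).2 (hDz hd)
    have hD' : (D.subgroupOf Nn).Normal := by
      constructor
      intro x hx g
      rw [mem_subgroupOf] at hx ⊢
      exact hDn _ ((hN _).1 g.2) _ hx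
    have hp' : IsPGroup 2 (D.subgroupOf Nn) := hDp.comap_subtype
    have h3 := Cfsg.Agent.Lib.Core.Basic.le_pCore hD' hp'
    have h4 : (⟨d, hdN⟩ : ↥Nn) ∈ D.subgroupOf Nn := by
      rw [mem_subgroupOf]
      exact hd
    exact ⟨_, h3 h4, rfl⟩

omit [Finite G] in
lemma four_eq {U : Subgroup G} (hU : IsKleinFour U) {a b c : G} (ha : a ∈ U) (hb : b ∈ U)
    (hc : c ∈ U) (ha1 : a ≠ 1) (hb1 : b ≠ 1) (hab : a ≠ b) (hc1 : c ≠ 1) (hca : c ≠ a)
    (hcb : c ≠ b) : c = a * b := by
  have h := IsKleinFour.eq_mul_of_ne_all (G := U) (x := ⟨a, ha⟩) (y := ⟨b, hb⟩) (z := ⟨c, hc⟩)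
    (fun h => ha1 (congrArg Subtype.val h)) (fun h => hb1 (congrArg Subtype.val h))
    (fun h => hab (congrArg Subtype.val h)) (fun h => hc1 (congrArg Subtype.val h))
    (fun h => hca (congrArg Subtype.val h)) (fun h => hcb (congrArg Subtype.val h))
  exact congrArg Subtype.val h

omit [Finite G] in
lemma four_sq {U : Subgroup G} (hU : IsKleinFour U) {a : G} (ha : a ∈ U) : a * a = 1 :=
  congrArg Subtype.val (IsKleinFour.mul_self (G := U) ⟨a, ha⟩)

omit [Finite G] in
lemma four_comm {U : Subgroup G} (hU : IsKleinFour U) {a b : G} (ha : a ∈ U) (hb : b ∈ U) :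
    a * b = b * a := by
  have h1 := four_sq hU (U.mul_mem ha hb)
  have h2 := four_sq hU ha
  have h3 := four_sq hU hb
  calc a * b = (a * b)⁻¹ := eq_inv_of_mul_eq_one_left h1
    _ = b⁻¹ * a⁻¹ := mul_inv_rev a b
    _ = b * a := by rw [inv_eq_of_mul_eq_one_left h2, inv_eq_of_mul_eq_one_left h3]

/-- How a 2-group with a fixed `z` acts on a four-group. -/
lemma four_act {U : Subgroup G} (hU : IsKleinFour U) {z y v : G} (hzU : z ∈ U) (hz1 : z ≠ 1)
    (hyU : ∀ w ∈ U, y * w * y⁻¹ ∈ U) (hyz : y * z = z * y) (hv : v ∈ U) :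
    y * v * y⁻¹ = v ∨ y * v * y⁻¹ = z * v := by
  by_cases hv1 : v = 1
  · left
    rw [hv1]
    group
  by_cases hvz : v = z
  · left
    rw [hvz, hyz]
    group
  by_cases hw : y * v * y⁻¹ = v
  · exact Or.inl hw
  right
  refine four_eq hU hzU hv (hyU v hv) hz1 hv1 (Ne.symm hvz) ?_ ?_ hw
  · intro h
    apply hv1
    have e : v = y⁻¹ * (y * v * y⁻¹) * y := by group
    rw [e, h]
    group
  · intro h
    apply hvz
    have h3 : y * v * y⁻¹ = y * z * y⁻¹ := by
      rw [h, hyz]
      group
    have h4 := mul_right_cancel h3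
    exact mul_left_cancel h4

/-- Lemma A: when `z ∈ U` is central in `P`, `U ≤ O₂(C(z))`. -/
theorem le_core_of_central {P U Q : Subgroup G} {z : G} (hQ : CoreData z Q) (hz : orderOf z = 2)
    (hPp : IsPGroup 2 P) (hmax : ∀ R : Subgroup G, IsPGroup 2 R → P ≤ R → R = P)
    (hUP : U ≤ P) (hUn : P ≤ normalizer (U : Set G)) (hU4 : IsKleinFour U) (hzU : z ∈ U)
    (hzP : P ≤ Cz(z)) : U ≤ Q := by
  classical
  have hz1 : z ≠ 1 := by
    intro h
    rw [h, orderOf_one] at hz
    omega
  have hzz : z * z = 1 := four_sq hU4 hzU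
  have hQP : Q ≤ P := by
    have h1 : IsPGroup 2 ↥(Q ⊔ P) := IsPGroup.to_sup_of_normal_left' hQ.pg hPp (by
      intro y hy
      rw [mem_normalizer_iff]
      intro q
      constructor
      · exact hQ.nrm y (hzP hy) q
      · intro h
        have := hQ.nrm y⁻¹ (inv_mem (hzP hy)) _ h
        simpa [mul_assoc] using this)
    have h2 := hmax _ h1 le_sup_right
    rw [← h2]
    exact le_sup_left
  have hzcomm : ∀ m ∈ Cz(z), m * z = z * m := fun m hm => mem_cz.1 hm
  -- the group acting trivially on `Q / ⟨z⟩`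
  let D : Subgroup G :=
    { carrier := {m | m ∈ Cz(z) ∧ ∀ q ∈ Q, m * q * m⁻¹ = q ∨ m * q * m⁻¹ = z * q}
      one_mem' := ⟨one_mem _, fun q _ => Or.inl (by group)⟩
      mul_mem' := by
        rintro a b ⟨ha, ha'⟩ ⟨hb, hb'⟩
        refine ⟨mul_mem ha hb, fun q hq => ?_⟩
        have e : a * b * q * (a * b)⁻¹ = a * (b * q * b⁻¹) * a⁻¹ := by group
        rw [e]
        rcases hb' q hq with h | h
        · rw [h]
          exact ha' q hq
        · rw [h]
          have e2 : a * (z * q) * a⁻¹ = z * (a * q * a⁻¹) := by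
            calc a * (z * q) * a⁻¹ = (a * z) * q * a⁻¹ := by group
              _ = (z * a) * q * a⁻¹ := by rw [hzcomm a ha]
              _ = _ := by group
          rw [e2]
          rcases ha' q hq with h3 | h3
          · rw [h3]
            exact Or.inr rfl
          · rw [h3, ← mul_assoc, hzz, one_mul]
            exact Or.inl rfl
      inv_mem' := by
        rintro a ⟨ha, ha'⟩
        refine ⟨inv_mem ha, fun q hq => ?_⟩
        have hq' : a⁻¹ * q * a⁻¹⁻¹ ∈ Q := hQ.nrm _ (inv_mem ha) _ hq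
        rcases ha' _ hq' with h | h
        · left
          have e : a * (a⁻¹ * q * a⁻¹⁻¹) * a⁻¹ = q := by group
          rw [e] at h
          exact h.symm
        · right
          have e : a * (a⁻¹ * q * a⁻¹⁻¹) * a⁻¹ = q := by group
          rw [e] at h
          calc a⁻¹ * q * a⁻¹⁻¹ = z * (z * (a⁻¹ * q * a⁻¹⁻¹)) := by
                rw [← mul_assoc, hzz, one_mul]
            _ = z * q := by rw [← h] }
  have hDz : D ≤ Cz(z) := fun m hm => hm.1
  have hDact : ∀ m ∈ D, ∀ q ∈ Q, m * q * m⁻¹ = q ∨ m * q * m⁻¹ = z * q := fun m hm => hm.2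
  -- no odd order elements
  have hodd : ∀ y ∈ D, ∀ m : ℕ, Odd m → y ^ m = 1 → y = 1 := by
    intro y hy m hm hym
    have hyc : y ∈ Q := by
      apply hQ.cent y (hDz hy)
      intro q hq
      rcases hDact y hy q hq with h | h
      · calc y * q = y * q * y⁻¹ * y := by group
          _ = q * y := by rw [h]
      · exfalso
        have hpow : ∀ j : ℕ, y ^ j * q * (y ^ j)⁻¹ = z ^ j * q := by
          intro j
          induction j with
          | zero => simp
          | succ j ih =>
            have e : y ^ (j + 1) * q * (y ^ (j + 1))⁻¹ = y * (y ^ j * q * (y ^ j)⁻¹) * y⁻¹ := by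
              rw [pow_succ']
              group
            rw [e, ih]
            have hc : y * z ^ j = z ^ j * y := (Commute.pow_right (hzcomm y (hDz hy)) j)
            calc y * (z ^ j * q) * y⁻¹ = (y * z ^ j) * q * y⁻¹ := by group
              _ = (z ^ j * y) * q * y⁻¹ := by rw [hc]
              _ = z ^ j * (y * q * y⁻¹) := by group
              _ = z ^ j * (z * q) := by rw [h]
              _ = z ^ (j + 1) * q := by rw [pow_succ]; group
        have h1 := hpow m
        rw [hym] at h1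
        simp only [one_mul, inv_one, mul_one] at h1
        have h2 : z ^ m = 1 := by
          have := mul_right_cancel (show z ^ m * q = 1 * q by rw [← h1, one_mul])
          exact this
        obtain ⟨k, rfl⟩ := hm
        have h3 : z ^ (2 * k + 1) = z := by
          rw [pow_succ, pow_mul, sq, hzz, one_pow, one_mul]
        rw [h3] at h2
        exact hz1 h2
    obtain ⟨a, ha⟩ := hQ.pg ⟨y, hyc⟩
    have ha' : y ^ 2 ^ a = 1 := congrArg Subtype.val ha
    have h1 : orderOf y ∣ 2 ^ a := orderOf_dvd_of_pow_eq_one ha'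
    have h2 : orderOf y ∣ m := orderOf_dvd_of_pow_eq_one hym
    have h3 : Nat.Coprime (2 ^ a) m := Nat.Coprime.pow_left _ (Nat.coprime_two_left.2 hm)
    have h4 : orderOf y ∣ 1 := by
      rw [← h3.gcd_eq_one]
      exact Nat.dvd_gcd h1 h2
    exact orderOf_eq_one_iff.1 (Nat.dvd_one.1 h4)
  have hDp : IsPGroup 2 D := by
    rintro ⟨d, hd⟩
    obtain ⟨k, m, hm, hkm⟩ := Nat.exists_eq_two_pow_mul_odd (orderOf_pos d).ne'
    refine ⟨k, Subtype.ext ?_⟩
    have h1 : d ^ 2 ^ k = 1 := by
      apply hodd _ (D.pow_mem hd _) m hm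
      rw [← pow_mul, ← hkm]
      exact pow_orderOf_eq_one d
    exact h1
  have hDn : ∀ g ∈ Cz(z), ∀ d ∈ D, g * d * g⁻¹ ∈ D := by
    intro g hg d hd
    refine ⟨mul_mem (mul_mem hg (hDz hd)) (inv_mem hg), fun q hq => ?_⟩
    have hq' : g⁻¹ * q * g⁻¹⁻¹ ∈ Q := hQ.nrm _ (inv_mem hg) _ hq
    have e : g * d * g⁻¹ * q * (g * d * g⁻¹)⁻¹ = g * (d * (g⁻¹ * q * g⁻¹⁻¹) * d⁻¹) * g⁻¹ := by group
    rw [e]
    rcases hDact d hd _ hq' with h | h
    · left
      rw [h]
      group
    · right
      rw [h]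
      calc g * (z * (g⁻¹ * q * g⁻¹⁻¹)) * g⁻¹ = (g * z) * (g⁻¹ * q * g⁻¹⁻¹) * g⁻¹ := by group
        _ = (z * g) * (g⁻¹ * q * g⁻¹⁻¹) * g⁻¹ := by rw [hzcomm g hg]
        _ = z * q := by group
  have hUD : U ≤ D := by
    intro v hv
    refine ⟨hzP (hUP hv), fun q hq => ?_⟩
    have hqP := hQP hq
    have hyU : ∀ w ∈ U, q * w * q⁻¹ ∈ U := fun w hw => (mem_normalizer_iff.1 (hUn hqP) w).1 hw
    rcases four_act hU4 hzU hz1 hyU (hzcomm q (hzP hqP)) hv with h | h
    · left
      have h1 : q * v = v * q := by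
        calc q * v = q * v * q⁻¹ * q := by group
          _ = v * q := by rw [h]
      rw [← h1]
      group
    · right
      have h1 : q * v = z * v * q := by
        calc q * v = q * v * q⁻¹ * q := by group
          _ = z * v * q := by rw [h]
      have h2 : v * q = z * (q * v) := by
        rw [h1, ← mul_assoc, ← mul_assoc, hzz, one_mul]
      rw [h2]
      group
  exact hUD.trans (hQ.max D hDp hDz hDn)

/-- Lemma B: `U ≤ O₂(C(u))` for all `u ∈ U#`. -/
theorem le_core (P : Sylow 2 G) {U Q : Subgroup G} (hUP : U ≤ (P : Subgroup G))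
    (hUn : (P : Subgroup G) ≤ normalizer (U : Set G)) (hU4 : IsKleinFour U)
    (hUZ : ¬ IsCyclic ↥((P : Subgroup G) ⊓ centralizer ((P : Subgroup G) : Set G)) →
      U ≤ centralizer ((P : Subgroup G) : Set G))
    {u : G} (hu : u ∈ U) (hu1 : u ≠ 1) (hQ : CoreData u Q) : U ≤ Q := by
  classical
  haveI : Fact (Nat.Prime 2) := ⟨Nat.prime_two⟩
  have hPp : IsPGroup 2 (P : Subgroup G) := P.isPGroup'
  have hmaxOf : ∀ S : Sylow 2 G, ∀ R : Subgroup G, IsPGroup 2 R → (S : Subgroup G) ≤ R →
      R = S := fun S R hR h => (S.is_maximal' hR h)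
  have huu : u * u = 1 := four_sq hU4 hu
  have huo : orderOf u = 2 := orderOf_eq_prime (by rw [sq]; exact huu) hu1
  by_cases hcent : (P : Subgroup G) ≤ Cz(u)
  · exact le_core_of_central hQ huo hPp (hmaxOf P) hUP hUn hU4 hu hcent
  have hZc : IsCyclic ↥((P : Subgroup G) ⊓ centralizer ((P : Subgroup G) : Set G)) := by
    by_contra h
    apply hcent
    have h1 := hUZ h hu
    intro y hy
    rw [mem_cz]
    exact mem_centralizer_iff.1 h1 y hy
  obtain ⟨x, hxP, hxu⟩ : ∃ x ∈ (P : Subgroup G), x * u ≠ u * x := by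
    by_contra h
    apply hcent
    intro y hy
    by_contra h5
    exact h ⟨y, hy, fun h6 => h5 (mem_cz.2 h6)⟩
  -- the central involution
  obtain ⟨z, hzU, hz1, hzc⟩ : ∃ z ∈ U, z ≠ 1 ∧ (P : Subgroup G) ≤ Cz(z) := by
    let N : Subgroup ↥(P : Subgroup G) := U.subgroupOf (P : Subgroup G)
    haveI hNn : N.Normal := by
      constructor
      intro w hw g
      rw [mem_subgroupOf] at hw ⊢
      exact (mem_normalizer_iff.1 (hUn g.2) w).1 hw
    have hN1 : N ≠ ⊥ := by
      intro h
      have h1 : (⟨u, hUP hu⟩ : ↥(P : Subgroup G)) ∈ N := by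
        rw [mem_subgroupOf]
        exact hu
      rw [h, mem_bot] at h1
      exact hu1 (congrArg Subtype.val h1)
    have h2 := Cfsg.Agent.Lib.Involutions2.NormalFour.inf_center_ne_bot hPp N hN1
    obtain ⟨⟨w, hw⟩, hw1⟩ := (Subgroup.ne_bot_iff_exists_ne_one).1 h2
    have hw' := Subgroup.mem_inf.1 hw
    refine ⟨(w : G), mem_subgroupOf.1 hw'.1, ?_, ?_⟩
    · intro h
      apply hw1
      exact Subtype.ext (Subtype.ext h)
    · intro y hy
      rw [mem_cz]
      have h3 := (Subgroup.mem_center_iff.1 hw'.2) ⟨y, hy⟩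
      have h4 := congrArg Subtype.val h3
      exact h4
  have hzz : z * z = 1 := four_sq hU4 hzU
  have hzu : z ≠ u := by
    rintro rfl
    exact hcent hzc
  have hzo : orderOf z = 2 := orderOf_eq_prime (by rw [sq]; exact hzz) hz1
  have hzcomm : ∀ y ∈ (P : Subgroup G), y * z = z * y := fun y hy => mem_cz.1 (hzc hy)
  have hyU : ∀ y ∈ (P : Subgroup G), ∀ w ∈ U, y * w * y⁻¹ ∈ U :=
    fun y hy w hw => (mem_normalizer_iff.1 (hUn hy) w).1 hw
  have hact : ∀ y ∈ (P : Subgroup G), y * u * y⁻¹ = u ∨ y * u * y⁻¹ = z * u :=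
    fun y hy => four_act hU4 hzU hz1 (hyU y hy) (hzcomm y hy) hu
  have hxu' : x * u * x⁻¹ = z * u := by
    rcases hact x hxP with h | h
    · exfalso
      apply hxu
      calc x * u = x * u * x⁻¹ * x := by group
        _ = u * x := by rw [h]
    · exact h
  have hUcases : ∀ v ∈ U, v = 1 ∨ v = z ∨ v = u ∨ v = z * u := by
    intro v hv
    by_cases h1 : v = 1
    · exact Or.inl h1
    by_cases h2 : v = z
    · exact Or.inr (Or.inl h2)
    by_cases h3 : v = u
    · exact Or.inr (Or.inr (Or.inl h3))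
    exact Or.inr (Or.inr (Or.inr (four_eq hU4 hzU hu hv hz1 hu1 hzu h1 h2 h3)))
  set P₁ : Subgroup G := (P : Subgroup G) ⊓ Cz(u) with hP₁
  have hP₁P : P₁ ≤ (P : Subgroup G) := inf_le_left
  have hP₁z : ∀ p ∈ P₁, p * z = z * p := fun p hp => hzcomm p (hP₁P hp)
  have hP₁u : ∀ p ∈ P₁, p * u = u * p := fun p hp => mem_cz.1 (Subgroup.mem_inf.1 hp).2
  have hP₁U : ∀ p ∈ P₁, ∀ v ∈ U, p * v = v * p := by
    intro p hp v hv
    rcases hUcases v hv with rfl | rfl | rfl | rfl
    · group
    · exact hP₁z p hp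
    · exact hP₁u p hp
    · rw [← mul_assoc, hP₁z p hp, mul_assoc, hP₁u p hp, mul_assoc]
  have hUP₁ : U ≤ P₁ := fun v hv =>
    Subgroup.mem_inf.2 ⟨hUP hv, mem_cz.2 (four_comm hU4 hv hu)⟩
  have hxz : x * z = z * x := hzcomm x hxP
  have hx2u : x * x * u * (x * x)⁻¹ = u := by
    calc x * x * u * (x * x)⁻¹ = x * (x * u * x⁻¹) * x⁻¹ := by group
      _ = x * (z * u) * x⁻¹ := by rw [hxu']
      _ = (x * z) * u * x⁻¹ := by group
      _ = (z * x) * u * x⁻¹ := by rw [hxz]
      _ = z * (x * u * x⁻¹) := by group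
      _ = z * (z * u) := by rw [hxu']
      _ = u := by rw [← mul_assoc, hzz, one_mul]
  have hxxP₁ : x * x ∈ P₁ := by
    refine Subgroup.mem_inf.2 ⟨mul_mem hxP hxP, mem_cz.2 ?_⟩
    calc x * x * u = x * x * u * (x * x)⁻¹ * (x * x) := by group
      _ = u * (x * x) := by rw [hx2u]
  have hPcases : ∀ y ∈ (P : Subgroup G), y ∈ P₁ ∨ x * y ∈ P₁ := by
    intro y hy
    rcases hact y hy with h | h
    · left
      refine Subgroup.mem_inf.2 ⟨hy, mem_cz.2 ?_⟩
      calc y * u = y * u * y⁻¹ * y := by group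
        _ = u * y := by rw [h]
    · right
      refine Subgroup.mem_inf.2 ⟨mul_mem hxP hy, mem_cz.2 ?_⟩
      calc x * y * u = x * (y * u * y⁻¹) * y := by group
        _ = x * (z * u) * y := by rw [h]
        _ = (x * z) * u * y := by group
        _ = (z * x) * u * y := by rw [hxz]
        _ = z * (x * u * x⁻¹) * (x * y) := by group
        _ = z * (z * u) * (x * y) := by rw [hxu']
        _ = u * (x * y) := by rw [← mul_assoc z z u, hzz, one_mul]
  have hxinvu : x⁻¹ * u * x = z * u := by
    have h1 : u = x⁻¹ * (z * u) * x := by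
      rw [← hxu']
      group
    have h2 : x⁻¹ * z = z * x⁻¹ := by
      have := hzcomm x⁻¹ (inv_mem hxP)
      exact this
    calc x⁻¹ * u * x = x⁻¹ * (x⁻¹ * (z * u) * x) * x := by rw [← h1]
      _ = x⁻¹ * (x⁻¹ * z) * u * x * x := by group
      _ = x⁻¹ * (z * x⁻¹) * u * x * x := by rw [h2]
      _ = (x⁻¹ * z) * x⁻¹ * u * x * x := by group
      _ = (z * x⁻¹) * x⁻¹ * u * x * x := by rw [h2]
      _ = z * ((x * x)⁻¹ * u * (x * x)) := by group
      _ = z * u := by
        have h3 : (x * x)⁻¹ * u * (x * x) = u := by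
          have := hP₁u _ (inv_mem hxxP₁)
          calc (x * x)⁻¹ * u * (x * x) = u * (x * x)⁻¹ * (x * x) := by rw [this]
            _ = u := by group
        rw [h3]
  have hxconj : ∀ p ∈ P₁, x * p * x⁻¹ ∈ P₁ := by
    intro p hp
    refine Subgroup.mem_inf.2 ⟨mul_mem (mul_mem hxP (hP₁P hp)) (inv_mem hxP), mem_cz.2 ?_⟩
    have h1 : p * (z * u) = (z * u) * p := by
      rw [← mul_assoc, hP₁z p hp, mul_assoc, hP₁u p hp, mul_assoc]
    calc x * p * x⁻¹ * u = x * (p * (x⁻¹ * u * x)) * x⁻¹ := by group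
      _ = x * (p * (z * u)) * x⁻¹ := by rw [hxinvu]
      _ = x * ((z * u) * p) * x⁻¹ := by rw [h1]
      _ = x * ((x⁻¹ * u * x) * p) * x⁻¹ := by rw [hxinvu]
      _ = u * (x * p * x⁻¹) := by group
  have hxconj' : ∀ p ∈ P₁, x⁻¹ * p * x ∈ P₁ := by
    intro p hp
    have h1 := hxconj p hp
    have h2 := mul_mem (mul_mem (inv_mem hxxP₁) h1) hxxP₁
    have e : (x * x)⁻¹ * (x * p * x⁻¹) * (x * x) = x⁻¹ * p * x := by group
    rwa [e] at h2
  -- central involutions
  have hinv : ∀ a ∈ (P : Subgroup G), (∀ y ∈ (P : Subgroup G), y * a = a * y) → a * a = 1 →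
      a = 1 ∨ a = z := by
    intro a ha hac haa
    have hzZ : z ∈ (P : Subgroup G) ⊓ centralizer ((P : Subgroup G) : Set G) :=
      Subgroup.mem_inf.2 ⟨hUP hzU, mem_centralizer_iff.2 (fun y hy => hzcomm y hy)⟩
    have haZ : a ∈ (P : Subgroup G) ⊓ centralizer ((P : Subgroup G) : Set G) :=
      Subgroup.mem_inf.2 ⟨ha, mem_centralizer_iff.2 (fun y hy => hac y hy)⟩
    have h1 : orderOf (⟨z, hzZ⟩ : ↥((P : Subgroup G) ⊓ centralizer ((P : Subgroup G) : Set G))) = 2 := by
      rw [Subgroup.orderOf_mk]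
      exact hzo
    have h2 : (⟨a, haZ⟩ : ↥((P : Subgroup G) ⊓ centralizer ((P : Subgroup G) : Set G))) ^ 2 = 1 :=
      Subtype.ext (by simpa [sq] using haa)
    have h3 := Cfsg.Agent.Lib.PGroups.NormalRankTwo.mem_zpowers_of_pow_eq_one h1 h2
    have h4 : (⟨z, hzZ⟩ : ↥((P : Subgroup G) ⊓ centralizer ((P : Subgroup G) : Set G))) ^ 2 = 1 :=
      Subtype.ext (by simpa [sq] using hzz)
    rcases Cfsg.Agent.Lib.Involutions2.NormalFour.mem_zpowers_of_sq h4 h3 with h5 | h5
    · exact Or.inl (congrArg Subtype.val h5)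
    · exact Or.inr (congrArg Subtype.val h5)
  have hcenOf : ∀ a, (∀ p ∈ P₁, p * a = a * p) → x * a = a * x →
      ∀ y ∈ (P : Subgroup G), y * a = a * y := by
    intro a h1 h2 y hy
    rcases hPcases y hy with h | h
    · exact h1 y h
    · have h3 := h1 _ h
      have h4 : x⁻¹ * a = a * x⁻¹ := by
        calc x⁻¹ * a = x⁻¹ * (a * x) * x⁻¹ := by group
          _ = x⁻¹ * (x * a) * x⁻¹ := by rw [h2]
          _ = a * x⁻¹ := by group
      calc y * a = x⁻¹ * (x * y * a) := by group
        _ = x⁻¹ * (a * (x * y)) := by rw [h3]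
        _ = (x⁻¹ * a) * (x * y) := by group
        _ = (a * x⁻¹) * (x * y) := by rw [h4]
        _ = a * y := by group
  have hchar : ∀ a ∈ P₁, (∀ p ∈ P₁, p * a = a * p) → a * a = 1 → a ∈ U := by
    intro a ha hac haa
    have haP := hP₁P ha
    set b : G := x * a * x⁻¹ with hb
    have hbP₁ : b ∈ P₁ := hxconj a ha
    have hbc : ∀ p ∈ P₁, p * b = b * p := by
      intro p hp
      have h1 := hac _ (hxconj' p hp)
      calc p * b = x * ((x⁻¹ * p * x) * a) * x⁻¹ := by
            rw [hb]
            group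
        _ = x * (a * (x⁻¹ * p * x)) * x⁻¹ := by rw [h1]
        _ = b * p := by
            rw [hb]
            group
    have hbb : b * b = 1 := by
      calc b * b = x * (a * a) * x⁻¹ := by
            rw [hb]
            group
        _ = 1 := by
            rw [haa]
            group
    have hab : b * a = a * b := hac b hbP₁
    obtain ⟨c, hc⟩ : ∃ c : G, c = b * a := ⟨_, rfl⟩
    have hcP : c ∈ (P : Subgroup G) := by
      rw [hc]
      exact hP₁P (mul_mem hbP₁ ha)
    have hcc : c * c = 1 := by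
      calc c * c = b * (a * b) * a := by
            rw [hc]
            group
        _ = b * (b * a) * a := by rw [hab]
        _ = (b * b) * (a * a) := by group
        _ = 1 := by rw [hbb, haa, one_mul]
    have hcp : ∀ p ∈ P₁, p * c = c * p := by
      intro p hp
      calc p * c = (p * b) * a := by
            rw [hc]
            group
        _ = (b * p) * a := by rw [hbc p hp]
        _ = b * (p * a) := by group
        _ = b * (a * p) := by rw [hac p hp]
        _ = c * p := by
            rw [hc]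
            group
    have hxb : x * b * x⁻¹ = a := by
      have h1 := hac _ (inv_mem hxxP₁)
      calc x * b * x⁻¹ = (x * x) * a * (x * x)⁻¹ := by
            rw [hb]
            group
        _ = a := by
            have h2 := hac _ hxxP₁
            rw [h2]
            group
    have hxc : x * c = c * x := by
      calc x * c = (x * b * x⁻¹) * (x * a * x⁻¹) * x := by
            rw [hc]
            group
        _ = a * b * x := by rw [hxb]
        _ = b * a * x := by rw [hab]
        _ = c * x := by rw [hc]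
    rcases hinv c hcP (hcenOf c hcp hxc) hcc with h0 | h0
    · -- `c = 1`
      have hba : b = a := by
        have h1 : b * a = 1 := by
          rw [← hc]
          exact h0
        calc b = b * a * a := by rw [mul_assoc, haa, mul_one]
          _ = a := by rw [h1, one_mul]
      have hxa : x * a = a * x := by
        calc x * a = x * a * x⁻¹ * x := by group
          _ = a * x := by
              rw [← hb, hba]
      rcases hinv a haP (hcenOf a hac hxa) haa with h1 | h1
      · rw [h1]
        exact U.one_mem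
      · rw [h1]
        exact hzU
    · -- `c = z`
      have hbz : b = z * a := by
        have h1 : b * a = z := by
          rw [← hc]
          exact h0
        calc b = b * a * a := by rw [mul_assoc, haa, mul_one]
          _ = z * a := by rw [h1]
      obtain ⟨e, he⟩ : ∃ e : G, e = a * u := ⟨_, rfl⟩
      have heP : e ∈ (P : Subgroup G) := by
        rw [he]
        exact mul_mem haP (hP₁P (hUP₁ hu))
      have hau : a * u = u * a := (hac u (hUP₁ hu)).symm
      have hee : e * e = 1 := by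
        calc e * e = a * (u * a) * u := by
              rw [he]
              group
          _ = a * (a * u) * u := by rw [hau]
          _ = (a * a) * (u * u) := by group
          _ = 1 := by rw [haa, huu, one_mul]
      have hep : ∀ p ∈ P₁, p * e = e * p := by
        intro p hp
        calc p * e = (p * a) * u := by
              rw [he]
              group
          _ = (a * p) * u := by rw [hac p hp]
          _ = a * (p * u) := by group
          _ = a * (u * p) := by rw [hP₁u p hp]
          _ = e * p := by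
              rw [he]
              group
      have hxe : x * e = e * x := by
        have hza : z * a = a * z := (hzcomm a haP).symm
        calc x * e = (x * a * x⁻¹) * (x * u * x⁻¹) * x := by
              rw [he]
              group
          _ = (z * a) * (z * u) * x := by rw [← hb, hbz, hxu']
          _ = (a * z) * (z * u) * x := by rw [hza]
          _ = a * (z * z) * u * x := by group
          _ = e * x := by
              rw [hzz, he]
              group
      rcases hinv e heP (hcenOf e hep hxe) hee with h1 | h1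
      · have h2 : a = u := by
          calc a = a * u * u := by rw [mul_assoc, huu, mul_one]
            _ = u := by
                have h3 : a * u = 1 := by
                  rw [← he]
                  exact h1
                rw [h3, one_mul]
        rw [h2]
        exact hu
      · have h2 : a = z * u := by
          calc a = a * u * u := by rw [mul_assoc, huu, mul_one]
            _ = z * u := by
                have h3 : a * u = z := by
                  rw [← he]
                  exact h1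
                rw [h3]
        rw [h2]
        exact mul_mem hzU hu
  by_cases hQP₁ : Q ≤ P₁
  · intro v hv
    apply hQ.cent v (mem_cz.2 (four_comm hU4 hv hu))
    intro q hq
    exact (hP₁U q (hQP₁ hq) v hv).symm
  have hP₁p : IsPGroup 2 P₁ := hPp.to_le hP₁P
  have hRp : IsPGroup 2 ↥(Q ⊔ P₁) := IsPGroup.to_sup_of_normal_left' hQ.pg hP₁p (by
    intro y hy
    have hy' : y ∈ Cz(u) := (Subgroup.mem_inf.1 hy).2
    rw [mem_normalizer_iff]
    intro q
    constructor
    · exact hQ.nrm y hy' q
    · intro h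
      have := hQ.nrm y⁻¹ (inv_mem hy') _ h
      simpa [mul_assoc] using this)
  have hRu : Q ⊔ P₁ ≤ Cz(u) := sup_le hQ.le inf_le_right
  have hlt : P₁ < Q ⊔ P₁ := lt_of_le_of_ne le_sup_right (fun h => hQP₁ (by
    rw [h]
    exact le_sup_left))
  have hlt2 := lt_inf_normalizer hRp hlt
  obtain ⟨t, ht, htP₁⟩ := SetLike.exists_of_lt hlt2
  have htR : t ∈ Q ⊔ P₁ := (Subgroup.mem_inf.1 ht).1
  have htN : t ∈ normalizer (P₁ : Set G) := (Subgroup.mem_inf.1 ht).2
  have htu : t * u = u * t := mem_cz.1 (hRu htR)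
  have htU : ∀ v ∈ U, t * v * t⁻¹ ∈ U := by
    intro v hv
    apply hchar
    · exact (mem_normalizer_iff.1 htN v).1 (hUP₁ hv)
    · intro p hp
      have hp' : t⁻¹ * p * t⁻¹⁻¹ ∈ P₁ := (mem_normalizer_iff.1 (inv_mem htN) p).1 hp
      have h1 := hP₁U _ hp' v hv
      calc p * (t * v * t⁻¹) = t * ((t⁻¹ * p * t⁻¹⁻¹) * v) * t⁻¹ := by group
        _ = t * (v * (t⁻¹ * p * t⁻¹⁻¹)) * t⁻¹ := by rw [h1]
        _ = t * v * t⁻¹ * p := by group
    · calc t * v * t⁻¹ * (t * v * t⁻¹) = t * (v * v) * t⁻¹ := by group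
        _ = 1 := by
            rw [four_sq hU4 hv]
            group
  have htNU : t ∈ normalizer (U : Set G) := by
    rw [mem_normalizer_iff_cj]
    apply Subgroup.eq_of_le_of_card_ge
    · rintro _ ⟨w, hw, rfl⟩
      exact htU w hw
    · rw [card_cj]
  have htz : t * z ≠ z * t := by
    intro htz
    set B : Subgroup G := (Q ⊔ P₁) ⊓ Cz(z) with hB
    have hBp : IsPGroup 2 B := hRp.to_le inf_le_left
    have hBU : ∀ b ∈ B, ∀ v ∈ U, b * v = v * b := by
      intro b hb v hv
      have hb' := Subgroup.mem_inf.1 hb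
      have h1 : b * u = u * b := mem_cz.1 (hRu hb'.1)
      have h2 : b * z = z * b := mem_cz.1 hb'.2
      rcases hUcases v hv with rfl | rfl | rfl | rfl
      · group
      · exact h2
      · exact h1
      · rw [← mul_assoc, h2, mul_assoc, h1, mul_assoc]
    have hP₁B : P₁ ≤ B := le_inf le_sup_right (fun p hp => mem_cz.2 (hP₁z p hp))
    have htB : t ∈ B := Subgroup.mem_inf.2 ⟨htR, mem_cz.2 htz⟩
    have hltB : P₁ < B := lt_of_le_of_ne hP₁B (fun h => htP₁ (by
      rw [h]
      exact htB))
    have hBN : B ≤ normalizer (U : Set G) := by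
      intro b hb
      rw [mem_normalizer_iff_cj]
      apply Subgroup.eq_of_le_of_card_ge
      · rintro _ ⟨w, hw, rfl⟩
        have h1 := hBU b hb w hw
        have e : (MulAut.conj b).toMonoidHom w = w := by
          simp only [MulEquiv.coe_toMonoidHom, MulAut.conj_apply]
          rw [h1]
          group
        rw [e]
        exact hw
      · rw [card_cj]
    have hi : ¬ 2 ∣ (P : Subgroup G).relIndex (normalizer (U : Set G)) := by
      intro h
      apply P.not_dvd_index
      rw [← Subgroup.relIndex_mul_index hUn]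
      exact h.trans (dvd_mul_right _ _)
    obtain ⟨g, hgN, hgB⟩ : ∃ g ∈ normalizer (U : Set G), cj g B ≤ (P : Subgroup G) :=
      exists_conj_le_of_sylowIn (p := 2) _ _ _ hUn hPp hi hBN hBp
    have hgP₁ : cj g B ≤ P₁ := by
      intro y hy
      refine Subgroup.mem_inf.2 ⟨hgB hy, ?_⟩
      obtain ⟨b, hb, rfl⟩ := hy
      simp only [MulEquiv.coe_toMonoidHom, MulAut.conj_apply]
      rw [mem_cz]
      have hu' : g⁻¹ * u * g⁻¹⁻¹ ∈ U := (mem_normalizer_iff.1 (inv_mem hgN) u).1 hu
      have h1 := hBU b hb _ hu'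
      calc g * b * g⁻¹ * u = g * (b * (g⁻¹ * u * g⁻¹⁻¹)) * g⁻¹ := by group
        _ = g * ((g⁻¹ * u * g⁻¹⁻¹) * b) * g⁻¹ := by rw [h1]
        _ = u * (g * b * g⁻¹) := by group
    have h1 := Subgroup.card_le_of_le hgP₁
    rw [card_cj] at h1
    have h2 := card_lt_of_lt hltB
    omega
  have htzeq : t * z * t⁻¹ = z * u := by
    refine four_eq hU4 hzU hu (htU z hzU) hz1 hu1 hzu ?_ ?_ ?_
    · intro h
      apply hz1
      have e : z = t⁻¹ * (t * z * t⁻¹) * t := by group
      rw [e, h]
      group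
    · intro h
      apply htz
      calc t * z = t * z * t⁻¹ * t := by group
        _ = z * t := by rw [h]
    · intro h
      apply hzu
      have h1 : t * z * t⁻¹ = t * u * t⁻¹ := by
        rw [h, htu]
        group
      have h2 := mul_right_cancel h1
      exact mul_left_cancel h2
  set g : G := x * t with hg
  have hgz : g * z * g⁻¹ = u := by
    calc g * z * g⁻¹ = x * (t * z * t⁻¹) * x⁻¹ := by
          rw [hg]
          group
      _ = x * (z * u) * x⁻¹ := by rw [htzeq]
      _ = (x * z) * u * x⁻¹ := by group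
      _ = (z * x) * u * x⁻¹ := by rw [hxz]
      _ = z * (x * u * x⁻¹) := by group
      _ = z * (z * u) := by rw [hxu']
      _ = u := by rw [← mul_assoc, hzz, one_mul]
  have hgN : g ∈ normalizer (U : Set G) := mul_mem (hUn hxP) htNU
  set P' : Sylow 2 G := g • P with hP'
  have hP'mem : ∀ y, y ∈ (P' : Subgroup G) ↔ g⁻¹ * y * g ∈ (P : Subgroup G) := by
    intro y
    have e : (P' : Subgroup G) = cj g (P : Subgroup G) := rfl
    rw [e, mem_cj]
  refine le_core_of_central hQ huo P'.isPGroup' (hmaxOf P') ?_ ?_ hU4 hu ?_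
  · intro v hv
    rw [hP'mem]
    have := (mem_normalizer_iff.1 (inv_mem hgN) v).1 hv
    simp only [inv_inv] at this
    exact hUP this
  · intro y hy
    rw [hP'mem] at hy
    have h1 := mul_mem (mul_mem hgN (hUn hy)) (inv_mem hgN)
    have e : g * (g⁻¹ * y * g) * g⁻¹ = y := by group
    rwa [e] at h1
  · intro y hy
    rw [hP'mem] at hy
    rw [mem_cz]
    have h1 := hzcomm _ hy
    rw [← hgz]
    calc y * (g * z * g⁻¹) = g * ((g⁻¹ * y * g) * z) * g⁻¹ := by group
      _ = g * (z * (g⁻¹ * y * g)) * g⁻¹ := by rw [h1]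
      _ = g * z * g⁻¹ * y := by group

/-- S1957 -/
theorem s1957 (h2 : IsCharacteristicTwoType G) (P : Sylow 2 G) {U : Subgroup G}
    (hUP : U ≤ (P : Subgroup G)) (hUn : (P : Subgroup G) ≤ normalizer (U : Set G))
    (hU4 : IsKleinFour U)
    (hUZ : ¬ IsCyclic ↥((P : Subgroup G) ⊓ centralizer ((P : Subgroup G) : Set G)) →
      U ≤ centralizer ((P : Subgroup G) : Set G))
    (K : Subgroup G) (hK : Odd (Nat.card K)) (hUK : U ≤ normalizer (K : Set G)) :
    U ≤ centralizer (K : Set G) := by
  classical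
  haveI : Fact (Nat.Prime 2) := ⟨Nat.prime_two⟩
  haveI : IsMulCommutative U := IsKleinFour.isMulCommutative
  have hcop : (Nat.card U).Coprime (Nat.card K) := by
    rw [hU4.card_four]
    exact Nat.Coprime.pow_left 2 (Nat.coprime_two_left.2 hK)
  have hgen := Cfsg.Agent.Lib.Coprime.Generation.iSup_centralizer_eq (A := U) (K := K)
    IsKleinFour.not_isCyclic hUK hcop
  have hle : K ≤ centralizer (U : Set G) := by
    rw [← hgen]
    refine iSup₂_le ?_
    rintro a ⟨ha, ha1⟩ c hc
    have hc' := Subgroup.mem_inf.1 hc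
    have hao : orderOf a = 2 := orderOf_eq_prime (by rw [sq]; exact four_sq hU4 ha) ha1
    obtain ⟨Q, hQ⟩ := exists_coreData h2 hao
    have hUQ := le_core P hUP hUn hU4 hUZ ha ha1 hQ
    rw [mem_centralizer_iff]
    intro v hv
    have h1 : c * v * c⁻¹ ∈ Q := hQ.nrm c hc'.2 v (hUQ hv)
    have h3 : c * v * c⁻¹ * v⁻¹ ∈ Q := mul_mem h1 (inv_mem (hUQ hv))
    have h4 : v * c⁻¹ * v⁻¹ ∈ K := (mem_normalizer_iff.1 (hUK hv) _).1 (inv_mem hc'.1)
    have h5 : c * v * c⁻¹ * v⁻¹ ∈ K := by
      have e : c * v * c⁻¹ * v⁻¹ = c * (v * c⁻¹ * v⁻¹) := by group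
      rw [e]
      exact mul_mem hc'.1 h4
    have hbot : Q ⊓ K = ⊥ :=
      Cfsg.Agent.Lib.Core.Basic.inf_eq_bot_of_isPGroup_of_coprime hQ.pg
        (Nat.coprime_two_right.2 hK)
    have h6 : c * v * c⁻¹ * v⁻¹ ∈ Q ⊓ K := Subgroup.mem_inf.2 ⟨h3, h5⟩
    rw [hbot, mem_bot] at h6
    have h7 : c * v * c⁻¹ = v := eq_of_mul_inv_eq_one h6
    calc v * c = c * v * c⁻¹ * c := by rw [h7]
      _ = c * v := by group
  exact Subgroup.le_centralizer_iff.1 hle

end Cfsg.Agent.Lib.StrongSec.NFour
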