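import Cfsg.Agent.Lib.StrongSec.NormalCtl
import Cfsg.Agent.Lib.StrongSec.Main

/-!
# Factorizations in constrained sections: the normal closure of `Ω₁ Z(S)`
-/

set_option autoImplicit false
set_option linter.unusedSectionVars false

namespace Cfsg.Agent.Lib.StrongSec.TripleFac

open Cfsg Cfsg.Agent.Lib.PLocal.Alperin Cfsg.Agent.Lib.ConjFam.Basic
  Cfsg.Agent.Lib.ConjFam.WellPlaced Cfsg.Agent.Lib.StrongSec.MinFail
  Cfsg.Agent.Lib.TransferCtl.Reduce Cfsg.Agent.Lib.StrongSec.NormalCtl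
  Cfsg.Agent.Lib.TransferCtl.Basic Cfsg.Agent.Lib.ConjFam.StrongCtl
  Cfsg.Agent.Lib.StrongSec.Basic Cfsg.Agent.Lib.StrongSec.Main
  Cfsg.Agent.Lib.Core.Basic Cfsg.Agent.Lib.Transfer.Basic

local notation "N(" T ")" => Subgroup.normalizer (SetLike.coe (T : Subgroup _))
local notation "C(" T ")" => Subgroup.centralizer (SetLike.coe (T : Subgroup _))

universe u

variable {p : ℕ} [Fact p.Prime]

lemma pPrimeCore_quot_bot {Y : Type*} [Group Y] [Finite Y] (M : Subgroup Y) [M.Normal]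
    (h : M = pPrimeCore p Y) : pPrimeCore p (Y ⧸ M) = ⊥ := by
  subst h
  exact pPrimeCore_quotient_eq_bot

/-- The elements of exponent `p` in the centre of `X`. -/
lemma exists_elem {G : Type*} [Group G] (X : Subgroup G) :
    ∃ E : Subgroup G, ∀ x : G, x ∈ E ↔ x ∈ X ⊓ C(X) ∧ x ^ p = 1 := by
  refine ⟨{ carrier := {x | x ∈ X ⊓ C(X) ∧ x ^ p = 1}
            mul_mem' := ?_
            one_mem' := ⟨Subgroup.one_mem _, one_pow _⟩
            inv_mem' := ?_ }, fun x => Iff.rfl⟩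
  · rintro a b ⟨ha, ha'⟩ ⟨hb, hb'⟩
    refine ⟨Subgroup.mul_mem _ ha hb, ?_⟩
    have hc : Commute a b :=
      (Subgroup.mem_centralizer_iff.1 (Subgroup.mem_inf.1 ha).2 b (Subgroup.mem_inf.1 hb).1).symm
    rw [hc.mul_pow, ha', hb', one_mul]
  · rintro a ⟨ha, ha'⟩
    exact ⟨Subgroup.inv_mem _ ha, by rw [inv_pow, ha', inv_one]⟩

/-- A `p`-element of a quotient lifts to a `p`-element. -/
lemma exists_lift_pow {Y X : Type*} [Group Y] [Finite Y] [Group X] (π : Y →* X)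
    (hπ : Function.Surjective π) {x : X} {j : ℕ}
    (hx : x ^ p ^ j = 1) : ∃ y : Y, π y = x ∧ ∃ k : ℕ, y ^ p ^ k = 1 := by
  obtain ⟨y, rfl⟩ := hπ x
  obtain ⟨a, b, hy, hc, ha, hb, ⟨k, hk'⟩, hbc⟩ := exists_pPart_decomp (p := p) y
  refine ⟨a, ?_, k, hk'⟩
  have h1 : π b = 1 := by
    obtain ⟨m, hm⟩ := Subgroup.mem_zpowers_iff.1 hb
    have h2 : (π b) ^ p ^ j = 1 := by
      rw [← hm, map_zpow, ← zpow_natCast, ← zpow_mul, mul_comm, zpow_mul, zpow_natCast, hx, one_zpow]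
    have h3 : orderOf (π b) ∣ p ^ j := orderOf_dvd_of_pow_eq_one h2
    have h4 : orderOf (π b) ∣ orderOf b := orderOf_map_dvd _ _
    have h5 : Nat.Coprime (orderOf (π b)) (p ^ j) := Nat.Coprime.coprime_dvd_left h4 (hbc.pow_right j)
    have h6 : orderOf (π b) = 1 := Nat.Coprime.eq_one_of_dvd h5 h3
    exact orderOf_eq_one_iff.1 h6
  rw [hy, map_mul, h1, mul_one]

/-- The local factorization: normalizer of `P = W S` factors as a centralizer times a normalizer. -/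
theorem fac_local {G : Type u} [Group G] [Finite G] (S : Sylow p G)
    {W W' : ∀ (Q : Type u) [Group Q], Subgroup Q} (hW : IsCharPFunctor.{u} p W)
    (hW' : IsCharPFunctor.{u} p W')
    (hZP : omegaOne p ((S : Subgroup G) ⊓ C((S : Subgroup G))) ≤ inducedFunctor (G := G) W (S : Subgroup G))
    (hfac : ∀ (K R : Subgroup G) [hR : (R.subgroupOf K).Normal],
      C(pCore p (↥K ⧸ R.subgroupOf K)) ≤ pCore p (↥K ⧸ R.subgroupOf K) →
      ∀ T : Sylow p (↥K ⧸ R.subgroupOf K), ∀ x : (↥K ⧸ R.subgroupOf K),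
        ∃ a ∈ C(omegaOne p ((T : Subgroup (↥K ⧸ R.subgroupOf K)) ⊓ C((T : Subgroup (↥K ⧸ R.subgroupOf K))))),
        ∃ b ∈ N(inducedFunctor (G := (↥K ⧸ R.subgroupOf K)) W' (T : Subgroup (↥K ⧸ R.subgroupOf K))), x = a * b) :
    ∀ n ∈ N(inducedFunctor (G := G) W (S : Subgroup G)),
      ∃ a ∈ N(inducedFunctor (G := G) W (S : Subgroup G)) ⊓
          C(omegaOne p ((S : Subgroup G) ⊓ C((S : Subgroup G)))),
        ∃ b ∈ N(inducedFunctor (G := G) W (S : Subgroup G)) ⊓ N(inducedFunctor (G := G) W' (S : Subgroup G)),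
          n = a * b := by
  classical
  set Z : Subgroup G := omegaOne p ((S : Subgroup G) ⊓ C((S : Subgroup G))) with hZ
  set P : Subgroup G := inducedFunctor (G := G) W (S : Subgroup G) with hP
  set P' : Subgroup G := inducedFunctor (G := G) W' (S : Subgroup G) with hP'
  set H : Subgroup G := N(P) with hH
  have hPS : P ≤ (S : Subgroup G) := inducedFunctor_le _
  have hSH : (S : Subgroup G) ≤ H :=
    functor_le_normalizer (inducedFunctor_isConjugacyFunctor hW) S.isPGroup'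
  set C₀ : Subgroup G := C(P) with hC₀
  have hC₀H : C₀ ≤ H := cent_le_norm P
  have hC₀n : H ≤ N(C₀) := fun x hx => normalizes_centralizer hx
  have hfr := frattini_rel (p := p) hC₀H hC₀n le_rfl hC₀n (fun f hf => ⟨0, by simpa using hf⟩) hSH
    S.isPGroup' (not_dvd_relIndex_of_le S hSH)
  set S₀ : Subgroup G := C₀ ⊓ (S : Subgroup G) with hS₀
  have hS₀s : ¬ p ∣ S₀.relIndex C₀ := by
    rw [hS₀, inf_comm]
    exact not_dvd_inf_relIndex hC₀H hC₀n hSH (not_dvd_relIndex_of_le S hSH)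
  have hS₀p : IsPGroup p S₀ := S.isPGroup'.to_le inf_le_right
  set K : Subgroup G := H ⊓ N(S₀) with hK
  have hSK : (S : Subgroup G) ≤ K := fun s hs => Subgroup.mem_inf.2 ⟨hSH hs,
    normalizes_inf (hC₀n (hSH hs)) (Subgroup.le_normalizer hs)⟩
  have hPK : P ≤ K := hPS.trans hSK
  -- the section
  set R : Subgroup G := (pPrimeCore p ↥K).map K.subtype with hR
  have hRe : R.subgroupOf K = pPrimeCore p ↥K :=
    Subgroup.comap_map_eq_self_of_injective K.subtype_injective _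
  have hRn : (R.subgroupOf K).Normal := by
    rw [hRe]
    infer_instance
  let X := ↥K ⧸ R.subgroupOf K
  let π : ↥K →* X := QuotientGroup.mk' _
  have hπ : Function.Surjective π := QuotientGroup.mk'_surjective _
  have hker : π.ker = pPrimeCore p ↥K := by
    rw [← hRe]
    exact QuotientGroup.ker_mk' _
  have hcop : Nat.Coprime (Nat.card π.ker) p := by
    rw [hker]
    exact pPrimeCore_coprime
  have hkn : (π.ker).Normal := inferInstance
  have hcore : pPrimeCore p X = ⊥ := pPrimeCore_quot_bot _ hRe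
  -- subgroups of `K`
  let Pk : Subgroup ↥K := P.subgroupOf K
  have hPkp : IsPGroup p Pk := (S.isPGroup'.to_le hPS).comap_subtype
  have hPkn : Pk.Normal := by
    constructor
    intro y hy k
    rw [Subgroup.mem_subgroupOf] at hy ⊢
    exact (Subgroup.mem_normalizer_iff.1 (Subgroup.mem_inf.1 k.2).1 _).1 hy
  have hker_inf : ∀ L : Subgroup ↥K, IsPGroup p L → L ⊓ π.ker = ⊥ := fun L hL =>
    inf_eq_bot_of_isPGroup_of_coprime hL hcop
  have hkerP : ∀ r ∈ π.ker, ∀ q ∈ Pk, r * q = q * r := by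
    intro r hr q hq
    have h1 : r * q * r⁻¹ * q⁻¹ ∈ Pk ⊓ π.ker := by
      refine Subgroup.mem_inf.2 ⟨?_, ?_⟩
      · exact Pk.mul_mem (hPkn.conj_mem q hq r) (Pk.inv_mem hq)
      · have e : r * q * r⁻¹ * q⁻¹ = r * (q * r⁻¹ * q⁻¹) := by group
        rw [e]
        exact (π.ker).mul_mem hr (hkn.conj_mem _ ((π.ker).inv_mem hr) q)
    rw [hker_inf Pk hPkp, Subgroup.mem_bot] at h1
    have h2 := h1
    rw [mul_inv_eq_one, mul_inv_eq_iff_eq_mul] at h2
    exact h2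
  -- the `p`-subgroup generated by `P` and `S₀`
  let D₀ : Subgroup ↥K := (P ⊔ S₀).subgroupOf K
  have hD₀p : IsPGroup p D₀ := (S.isPGroup'.to_le (sup_le hPS inf_le_right)).comap_subtype
  have hD₀n : D₀.Normal := by
    constructor
    intro y hy k
    rw [Subgroup.mem_subgroupOf] at hy ⊢
    have h1 : (k : G) ∈ N(P ⊔ S₀) := normalizes_sup (Subgroup.mem_inf.1 k.2).1 (Subgroup.mem_inf.1 k.2).2
    exact (Subgroup.mem_normalizer_iff.1 h1 _).1 hy
  have hDb : D₀.map π ≤ pCore p X := le_pCore (hD₀n.map π hπ) (hD₀p.map π)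
  -- the section is constrained
  have hconstr : C(pCore p X) ≤ pCore p X := by
    refine centralizer_le_of_psub hcore (pCore p X) ?_
    intro Rb hRb hRbC r hr
    obtain ⟨j, hj⟩ := hRb ⟨r, hr⟩
    have hj' : r ^ p ^ j = 1 := by
      have := congrArg Subtype.val hj
      simpa using this
    obtain ⟨y, rfl, k, hk⟩ := exists_lift_pow π hπ hj'
    -- `y` centralizes `D₀`
    have hyc : ∀ d ∈ D₀, y * d = d * y := by
      intro d hd
      have h1 : y * d * y⁻¹ * d⁻¹ ∈ D₀ ⊓ π.ker := by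
        refine Subgroup.mem_inf.2 ⟨D₀.mul_mem (hD₀n.conj_mem d hd y) (D₀.inv_mem hd), ?_⟩
        rw [MonoidHom.mem_ker]
        have h2 := Subgroup.mem_centralizer_iff.1 (hRbC hr) (π d) (hDb ⟨d, hd, rfl⟩)
        simp only [map_mul, map_inv]
        rw [← h2]
        group
      rw [hker_inf D₀ hD₀p, Subgroup.mem_bot, mul_inv_eq_one, mul_inv_eq_iff_eq_mul] at h1
      exact h1
    have hyP : (y : G) ∈ C₀ := by
      rw [hC₀, Subgroup.mem_centralizer_iff]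
      intro q hq
      have hqK := hPK hq
      have h1 := hyc ⟨q, hqK⟩ (Subgroup.mem_subgroupOf.2 ((le_sup_left : P ≤ P ⊔ S₀) hq))
      exact (congrArg Subtype.val h1).symm
    have hyS₀ : (y : G) ∈ C(S₀) := by
      rw [Subgroup.mem_centralizer_iff]
      intro q hq
      have hqK : q ∈ K := hSK (inf_le_right (a := C₀) hq)
      have h1 := hyc ⟨q, hqK⟩ (Subgroup.mem_subgroupOf.2 ((le_sup_right : S₀ ≤ P ⊔ S₀) hq))
      exact (congrArg Subtype.val h1).symm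
    -- `y` lies in `S₀`
    have hyk : (y : G) ^ p ^ k = 1 := by
      have := congrArg Subtype.val hk
      simpa using this
    have hzN : Subgroup.zpowers (y : G) ≤ N(S₀) :=
      Subgroup.zpowers_le.2 (cent_le_norm S₀ hyS₀)
    have hzp : IsPGroup p (Subgroup.zpowers (y : G)) := by
      rw [IsPGroup.iff_card]
      rw [Nat.card_zpowers]
      obtain ⟨i, -, hi⟩ := (Nat.dvd_prime_pow (Fact.out : p.Prime)).1 (orderOf_dvd_of_pow_eq_one hyk)
      exact ⟨i, hi⟩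
    have hEp : IsPGroup p (S₀ ⊔ Subgroup.zpowers (y : G) : Subgroup G) := by
      rintro ⟨f, hf⟩
      obtain ⟨i, hi⟩ := pow_mem_of_mem_sup (p := p) hzN hzp hf
      obtain ⟨i', hi'⟩ := hS₀p ⟨_, hi⟩
      refine ⟨i' + i, Subtype.ext ?_⟩
      have := congrArg Subtype.val hi'
      simp only [Subgroup.coe_pow, Subgroup.coe_one] at this ⊢
      rw [pow_add, mul_comm, pow_mul]
      exact this
    have hEC : S₀ ⊔ Subgroup.zpowers (y : G) ≤ C₀ := sup_le inf_le_left (Subgroup.zpowers_le.2 hyP)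
    have hEq := eq_of_not_dvd_relIndex le_sup_left hEC hEp hS₀s
    have hyS : (y : G) ∈ S₀ := by
      rw [hEq]
      exact (le_sup_right : Subgroup.zpowers (y : G) ≤ _) (Subgroup.mem_zpowers _)
    exact hDb ⟨y, Subgroup.mem_subgroupOf.2 ((le_sup_right : S₀ ≤ P ⊔ S₀) hyS), rfl⟩
  -- the Sylow subgroup
  let Sk : Subgroup ↥K := (S : Subgroup G).subgroupOf K
  have hSkp : IsPGroup p Sk := S.isPGroup'.comap_subtype
  have hSks : ¬ p ∣ Sk.index := by
    intro hd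
    apply S.not_dvd_index
    have h1 := Subgroup.relIndex_mul_index hSK
    have h2 : (S : Subgroup G).relIndex K = Sk.index := rfl
    rw [← h1, h2]
    exact hd.trans (dvd_mul_right _ _)
  let T : Sylow p X := (hSkp.map π).toSylow (fun hd => hSks (hd.trans (Subgroup.index_map_dvd _ hπ)))
  have hT : (T : Subgroup X) = Sk.map π := rfl
  have hinj : Function.Injective (π.comp Sk.subtype) := by
    rw [injective_iff_map_eq_one]
    intro s hs
    have h1 : (s : ↥K) ∈ Sk ⊓ π.ker := Subgroup.mem_inf.2 ⟨s.2, hs⟩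
    rw [hker_inf Sk hSkp, Subgroup.mem_bot] at h1
    exact Subtype.ext h1
  -- the functor in `K` and in `X`
  let Qk : Subgroup ↥K := inducedFunctor (G := ↥K) W' Sk
  have hQkSk : Qk ≤ Sk := inducedFunctor_le _
  have hQmap : Qk.map K.subtype = P' := by
    have h1 := inducedFunctor_map hW' K.subtype Sk hSkp (K.subtype_injective.comp Sk.subtype_injective)
    have h2 : Sk.map K.subtype = (S : Subgroup G) := Subgroup.map_subgroupOf_eq_of_le hSK
    rw [h2] at h1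
    exact h1
  have hQb : inducedFunctor (G := X) W' (T : Subgroup X) = Qk.map π := by
    rw [hT]
    exact (inducedFunctor_map hW' π Sk hSkp hinj).symm
  have hZT : Z ≤ ((omegaOne p ((T : Subgroup X) ⊓ C((T : Subgroup X)))).comap π).map K.subtype := by
    rw [hZ, omegaOne, Subgroup.closure_le]
    rintro x ⟨hx, hxp⟩
    have hx' := Subgroup.mem_inf.1 hx
    refine ⟨⟨x, hSK hx'.1⟩, ?_, rfl⟩
    refine Subgroup.subset_closure ⟨Subgroup.mem_inf.2 ⟨?_, ?_⟩, ?_⟩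
    · exact ⟨⟨x, hSK hx'.1⟩, Subgroup.mem_subgroupOf.2 hx'.1, rfl⟩
    · rw [Subgroup.mem_centralizer_iff, hT]
      rintro _ ⟨s, hs, rfl⟩
      have h1 := Subgroup.mem_centralizer_iff.1 hx'.2 (s : G) (Subgroup.mem_subgroupOf.1 hs)
      rw [← map_mul, ← map_mul]
      congr 1
      exact Subtype.ext h1
    · rw [← map_pow]
      have : (⟨x, hSK hx'.1⟩ : ↥K) ^ p = 1 := Subtype.ext hxp
      rw [this, map_one]
  have hZK : Z ≤ K := hZP.trans hPK
  -- the factorization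
  intro n hn
  obtain ⟨c, hc, e', he'H, heq, he'N⟩ := hfr n hn
  let k : ↥K := ⟨e', Subgroup.mem_inf.2 ⟨he'H, he'N⟩⟩
  obtain ⟨a, ha, b, hb, hab⟩ := hfac K R hconstr T (π k)
  obtain ⟨a₁, rfl⟩ := hπ a
  obtain ⟨b₁, rfl⟩ := hπ b
  have ha₁Z : ∀ z ∈ Z, (a₁ : G) * z = z * (a₁ : G) := by
    intro z hz
    obtain ⟨z', hz', rfl⟩ := hZT hz
    have h1 := Subgroup.mem_centralizer_iff.1 ha (π z') hz'
    have hz'P : z' ∈ Pk := Subgroup.mem_subgroupOf.2 (hZP hz)
    have h2 : a₁ * z' * a₁⁻¹ * z'⁻¹ ∈ Pk ⊓ π.ker := by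
      refine Subgroup.mem_inf.2 ⟨Pk.mul_mem (hPkn.conj_mem z' hz'P a₁) (Pk.inv_mem hz'P), ?_⟩
      rw [MonoidHom.mem_ker]
      simp only [map_mul, map_inv]
      rw [← h1]
      group
    rw [hker_inf Pk hPkp, Subgroup.mem_bot, mul_inv_eq_one, mul_inv_eq_iff_eq_mul] at h2
    exact congrArg Subtype.val h2
  -- `b₁` up to the kernel
  rw [hQb] at hb
  set L : Subgroup ↥K := Qk ⊔ π.ker with hL
  have hQkp : IsPGroup p Qk := hSkp.to_le hQkSk
  have hQL : Qk ≤ L := le_sup_left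
  have hQks : ¬ p ∣ Qk.relIndex L := by
    have h1 := Subgroup.relIndex_mul_relIndex (⊥ : Subgroup ↥K) Qk L bot_le hQL
    have h2 := Subgroup.relIndex_mul_relIndex (⊥ : Subgroup ↥K) π.ker L bot_le le_sup_right
    have h3 : (π.ker).relIndex L = Nat.card Qk := by
      rw [hL, Subgroup.relIndex_sup_right, ← Subgroup.inf_relIndex_right, inf_comm,
        hker_inf Qk hQkp, Subgroup.relIndex_bot_left]
    rw [Subgroup.relIndex_bot_left, Subgroup.relIndex_bot_left] at h1 h2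
    rw [h3] at h2
    have h4 : Nat.card Qk * Qk.relIndex L = Nat.card Qk * Nat.card π.ker := by
      rw [h1, ← h2, mul_comm]
    have h5 : Qk.relIndex L = Nat.card π.ker := Nat.eq_of_mul_eq_mul_left Nat.card_pos h4
    rw [h5]
    intro hd
    have h6 := Nat.Coprime.eq_one_of_dvd hcop.symm hd
    exact (Fact.out : p.Prime).one_lt.ne' h6
  have hle : cj b₁ Qk ≤ L := by
    rintro _ ⟨y, hy, rfl⟩
    have h1 : π b₁ * π y * (π b₁)⁻¹ ∈ Qk.map π :=
      (Subgroup.mem_normalizer_iff.1 hb (π y)).1 ⟨y, hy, rfl⟩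
    have h2 : b₁ * y * b₁⁻¹ ∈ (Qk.map π).comap π := by
      rw [Subgroup.mem_comap]
      simpa [map_mul] using h1
    rw [Subgroup.comap_map_eq] at h2
    exact h2
  obtain ⟨ℓ, hℓ, hℓc⟩ := exists_conj_le_of_sylowIn L Qk (cj b₁ Qk) hQL hQkp hQks hle
    (isPGroup_cj hQkp b₁)
  have hm : ℓ * b₁ ∈ N(Qk) := by
    rw [mem_normalizer_iff_cj, ← cj_cj]
    apply Subgroup.eq_of_le_of_card_ge hℓc
    rw [card_cj, card_cj]
  obtain ⟨u, hu, r, hr, rfl⟩ := Subgroup.mem_sup_of_normal_right.1 hℓ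
  set n' : ↥K := u⁻¹ * (u * r * b₁) with hn'
  have hn'N : n' ∈ N(Qk) := Subgroup.mul_mem _ (Subgroup.le_normalizer (Qk.inv_mem hu)) hm
  have hb₁ : b₁ = r⁻¹ * n' := by
    rw [hn']
    group
  set a₂ : ↥K := k * n'⁻¹ with ha₂
  have ha₂Z : ∀ z ∈ Z, (a₂ : G) * z = z * (a₂ : G) := by
    intro z hz
    have hzK := hZK hz
    have hzPk : (⟨z, hzK⟩ : ↥K) ∈ Pk := Subgroup.mem_subgroupOf.2 (hZP hz)
    set ρ : ↥K := a₂ * (a₁ * r⁻¹)⁻¹ with hρ
    have hρk : ρ ∈ π.ker := by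
      rw [MonoidHom.mem_ker, hρ, ha₂]
      simp only [map_mul, map_inv]
      rw [hab, hb₁]
      simp only [map_mul, map_inv]
      group
    have e1 : a₂ = ρ * (a₁ * r⁻¹) := by
      rw [hρ]
      group
    have h1 : ρ * (⟨z, hzK⟩ : ↥K) = (⟨z, hzK⟩ : ↥K) * ρ := hkerP ρ hρk _ hzPk
    have h2 : r⁻¹ * (⟨z, hzK⟩ : ↥K) = (⟨z, hzK⟩ : ↥K) * r⁻¹ := hkerP _ ((π.ker).inv_mem hr) _ hzPk
    have h1' : (ρ : G) * z = z * (ρ : G) := congrArg Subtype.val h1
    have h2' : ((r⁻¹ : ↥K) : G) * z = z * ((r⁻¹ : ↥K) : G) := congrArg Subtype.val h2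
    have h3 := ha₁Z z hz
    rw [e1]
    push_cast
    calc (ρ : G) * ((a₁ : G) * ((r : G))⁻¹) * z = (ρ : G) * ((a₁ : G) * (((r : G))⁻¹ * z)) := by group
      _ = (ρ : G) * ((a₁ : G) * (z * ((r : G))⁻¹)) := by
        rw [show ((r : G))⁻¹ * z = z * ((r : G))⁻¹ by simpa using h2']
      _ = ((ρ : G) * ((a₁ : G) * z)) * ((r : G))⁻¹ := by group
      _ = ((ρ : G) * (z * (a₁ : G))) * ((r : G))⁻¹ := by rw [h3]
      _ = (((ρ : G) * z) * (a₁ : G)) * ((r : G))⁻¹ := by group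
      _ = ((z * (ρ : G)) * (a₁ : G)) * ((r : G))⁻¹ := by rw [h1']
      _ = _ := by group
  have hkeq : (k : G) = (a₂ : G) * (n' : G) := by
    have : k = a₂ * n' := by
      rw [ha₂]
      group
    exact congrArg Subtype.val this
  have hcC : c ∈ C(Z) := by
    rw [Subgroup.mem_centralizer_iff]
    intro z hz
    exact Subgroup.mem_centralizer_iff.1 hc z (hZP hz)
  refine ⟨c * a₂, Subgroup.mem_inf.2 ⟨Subgroup.mul_mem _ (hC₀H hc) (Subgroup.mem_inf.1 a₂.2).1, ?_⟩,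
    n', Subgroup.mem_inf.2 ⟨(Subgroup.mem_inf.1 n'.2).1, ?_⟩, ?_⟩
  · refine Subgroup.mul_mem _ hcC ?_
    rw [Subgroup.mem_centralizer_iff]
    intro z hz
    exact (ha₂Z z hz).symm
  · rw [← hQmap]
    exact Subgroup.le_normalizer_map K.subtype ⟨n', hn'N, rfl⟩
  · rw [heq]
    show c * e' = c * (a₂ : G) * (n' : G)
    have : e' = (k : G) := rfl
    rw [this, hkeq]
    group


/-- S1997 -/
theorem s1997 {G : Type u} [Group G] [Finite G] (S : Sylow p G)
    (W₁ W₂ : ∀ (Q : Type u) [Group Q], Subgroup Q) (hW₁ : IsCharPFunctor.{u} p W₁)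
    (hW₂ : IsCharPFunctor.{u} p W₂)
    (hfac : ∀ (K R : Subgroup G) [hR : (R.subgroupOf K).Normal],
      C(pCore p (↥K ⧸ R.subgroupOf K)) ≤ pCore p (↥K ⧸ R.subgroupOf K) →
      ∀ T : Sylow p (↥K ⧸ R.subgroupOf K),
      (∀ x : (↥K ⧸ R.subgroupOf K),
        ∃ a ∈ C(omegaOne p ((T : Subgroup (↥K ⧸ R.subgroupOf K)) ⊓ C((T : Subgroup (↥K ⧸ R.subgroupOf K))))),
        ∃ b ∈ N(inducedFunctor (G := (↥K ⧸ R.subgroupOf K)) W₁ (T : Subgroup (↥K ⧸ R.subgroupOf K))), x = a * b) ∧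
      (∀ x : (↥K ⧸ R.subgroupOf K),
        ∃ a ∈ C(omegaOne p ((T : Subgroup (↥K ⧸ R.subgroupOf K)) ⊓ C((T : Subgroup (↥K ⧸ R.subgroupOf K))))),
        ∃ b ∈ N(inducedFunctor (G := (↥K ⧸ R.subgroupOf K)) W₂ (T : Subgroup (↥K ⧸ R.subgroupOf K))), x = a * b) ∧
      (∀ x : (↥K ⧸ R.subgroupOf K),
        ∃ a ∈ N(inducedFunctor (G := (↥K ⧸ R.subgroupOf K)) W₁ (T : Subgroup (↥K ⧸ R.subgroupOf K))),
        ∃ b ∈ N(inducedFunctor (G := (↥K ⧸ R.subgroupOf K)) W₂ (T : Subgroup (↥K ⧸ R.subgroupOf K))), x = a * b))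
    (hZ : omegaOne p ((S : Subgroup G) ⊓ C((S : Subgroup G))) ≤
      inducedFunctor (G := G) W₁ (S : Subgroup G) ⊓ inducedFunctor (G := G) W₂ (S : Subgroup G))
    (N₁ : Subgroup G) (hN₁ : N₁ = N(inducedFunctor (G := G) W₁ (S : Subgroup G))) (A : Subgroup G)
    (hA : A = (Subgroup.normalClosure
      (((omegaOne p ((S : Subgroup G) ⊓ C((S : Subgroup G)))).subgroupOf N₁ : Subgroup ↥N₁) : Set ↥N₁)).map N₁.subtype) :
    A ≤ (S : Subgroup G) ∧ IsElementaryAbelian p A ∧ IsStronglyClosed A (S : Subgroup G) ∧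
      ControlsStrongFusion p A := by
  classical
  set Z : Subgroup G := omegaOne p ((S : Subgroup G) ⊓ C((S : Subgroup G))) with hZdef
  set P₁ : Subgroup G := inducedFunctor (G := G) W₁ (S : Subgroup G) with hP₁
  set P₂ : Subgroup G := inducedFunctor (G := G) W₂ (S : Subgroup G) with hP₂
  have hZ₁ : Z ≤ P₁ := hZ.trans inf_le_left
  have hZ₂ : Z ≤ P₂ := hZ.trans inf_le_right
  have hfac₁ := fac_local S hW₁ hW₂ hZ₁ (fun K R _ hc T x => (hfac K R hc T).2.1 x)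
  have hfac₂ := fac_local S hW₂ hW₁ hZ₂ (fun K R _ hc T x => (hfac K R hc T).1 x)
  have hP₁S : P₁ ≤ (S : Subgroup G) := inducedFunctor_le _
  -- the join of the conjugates under `N₁ ⊓ N₂`
  set A' : Subgroup G := ⨆ d : {d : G // d ∈ N(P₁) ⊓ N(P₂)}, cj (d : G) Z with hA'
  have hstep₁ : ∀ n ∈ N(P₁), ∀ d : {d : G // d ∈ N(P₁) ⊓ N(P₂)}, cj n (cj (d : G) Z) ≤ A' := by
    intro n hn d
    have hd := Subgroup.mem_inf.1 d.2
    have hnd : (n * (d : G))⁻¹ ∈ N(P₁) := Subgroup.inv_mem _ (Subgroup.mul_mem _ hn hd.1)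
    obtain ⟨a, ha, b, hb, he⟩ := hfac₁ _ hnd
    have ha' := Subgroup.mem_inf.1 ha
    have e1 : n * (d : G) = b⁻¹ * a⁻¹ := by
      have := congrArg (·⁻¹) he
      simpa using this
    rw [cj_cj, e1, ← cj_cj]
    have e2 : cj a⁻¹ Z = Z := by
      apply mem_normalizer_iff_cj.1
      exact cent_le_norm Z (Subgroup.inv_mem _ ha'.2)
    rw [e2]
    let b' : {d : G // d ∈ N(P₁) ⊓ N(P₂)} := ⟨b⁻¹, Subgroup.inv_mem _ hb⟩
    exact le_iSup (fun d : {d : G // d ∈ N(P₁) ⊓ N(P₂)} => cj (d : G) Z) b'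
  have hstep₂ : ∀ n ∈ N(P₂), ∀ d : {d : G // d ∈ N(P₁) ⊓ N(P₂)}, cj n (cj (d : G) Z) ≤ A' := by
    intro n hn d
    have hd := Subgroup.mem_inf.1 d.2
    have hnd : (n * (d : G))⁻¹ ∈ N(P₂) := Subgroup.inv_mem _ (Subgroup.mul_mem _ hn hd.2)
    obtain ⟨a, ha, b, hb, he⟩ := hfac₂ _ hnd
    have ha' := Subgroup.mem_inf.1 ha
    have hb' := Subgroup.mem_inf.1 hb
    have e1 : n * (d : G) = b⁻¹ * a⁻¹ := by
      have := congrArg (·⁻¹) he
      simpa using this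
    rw [cj_cj, e1, ← cj_cj]
    have e2 : cj a⁻¹ Z = Z := by
      apply mem_normalizer_iff_cj.1
      exact cent_le_norm Z (Subgroup.inv_mem _ ha'.2)
    rw [e2]
    let b'' : {d : G // d ∈ N(P₁) ⊓ N(P₂)} :=
      ⟨b⁻¹, Subgroup.mem_inf.2 ⟨Subgroup.inv_mem _ hb'.2, Subgroup.inv_mem _ hb'.1⟩⟩
    exact le_iSup (fun d : {d : G // d ∈ N(P₁) ⊓ N(P₂)} => cj (d : G) Z) b''
  have hNA' : ∀ n : G, (∀ d : {d : G // d ∈ N(P₁) ⊓ N(P₂)}, cj n (cj (d : G) Z) ≤ A') → cj n A' ≤ A' := by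
    intro n h
    rw [Subgroup.map_le_iff_le_comap]
    refine iSup_le fun d => ?_
    rw [← Subgroup.map_le_iff_le_comap]
    exact h d
  have hN₁A' : N(P₁) ≤ N(A') := by
    intro n hn
    apply mem_normalizer_of_conj_mem
    intro y hy
    exact hNA' n (hstep₁ n hn) ⟨y, hy, rfl⟩
  have hN₂A' : N(P₂) ≤ N(A') := by
    intro n hn
    apply mem_normalizer_of_conj_mem
    intro y hy
    exact hNA' n (hstep₂ n hn) ⟨y, hy, rfl⟩
  have hZA' : Z ≤ A' := by
    have h1 := le_iSup (fun d : {d : G // d ∈ N(P₁) ⊓ N(P₂)} => cj (d : G) Z)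
      ⟨1, Subgroup.mem_inf.2 ⟨Subgroup.one_mem _, Subgroup.one_mem _⟩⟩
    simpa only [cj_one] using h1
  have hAeq : A = A' := by
    subst hN₁
    rw [hA]
    apply le_antisymm
    · apply Subgroup.map_le_iff_le_comap.2
      have hn : (A'.comap (N(P₁)).subtype).Normal := by
        constructor
        intro y hy g
        rw [Subgroup.mem_comap] at hy ⊢
        exact (Subgroup.mem_normalizer_iff.1 (hN₁A' g.2) _).1 hy
      refine Subgroup.normalClosure_le_normal ?_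
      intro z hz
      exact hZA' (Subgroup.mem_subgroupOf.1 hz)
    · refine iSup_le fun d => ?_
      have hd := (Subgroup.mem_inf.1 d.2).1
      rintro _ ⟨z, hz, rfl⟩
      have hzN : z ∈ N(P₁) := Subgroup.le_normalizer (hZ₁ hz)
      refine ⟨(⟨(d : G), hd⟩ : ↥(N(P₁))) * ⟨z, hzN⟩ * (⟨(d : G), hd⟩ : ↥(N(P₁)))⁻¹, ?_, rfl⟩
      refine Subgroup.normalClosure_normal.conj_mem _ (Subgroup.subset_normalClosure ?_) _
      exact Subgroup.mem_subgroupOf.2 hz
  have hA'P : A' ≤ P₁ := by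
    refine iSup_le fun d => ?_
    have h1 := cj_mono (d : G) hZ₁
    rwa [mem_normalizer_iff_cj.1 (Subgroup.mem_inf.1 d.2).1] at h1
  have hZC : Z ≤ C(P₁) := by
    rw [hZdef, omegaOne, Subgroup.closure_le]
    rintro x ⟨hx, -⟩
    rw [SetLike.mem_coe, Subgroup.mem_centralizer_iff]
    intro q hq
    exact Subgroup.mem_centralizer_iff.1 (Subgroup.mem_inf.1 hx).2 q (hP₁S hq)
  have hA'C : A' ≤ C(P₁) := by
    refine iSup_le fun d => ?_
    have hd := (Subgroup.mem_inf.1 d.2).1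
    have h1 := cj_mono (d : G) hZC
    have h2 := mem_normalizer_iff_cj.1 (normalizes_centralizer hd)
    rwa [h2] at h1
  obtain ⟨E₁, hE₁⟩ := exists_elem (p := p) (S : Subgroup G)
  obtain ⟨E₂, hE₂⟩ := exists_elem (p := p) P₁
  have hZexp : Z ≤ E₁ := by
    rw [hZdef, omegaOne, Subgroup.closure_le]
    rintro x ⟨hx, hxp⟩
    exact (hE₁ x).2 ⟨hx, hxp⟩
  have hA'E : A' ≤ E₂ := by
    refine iSup_le fun d => ?_
    rintro _ ⟨z, hz, rfl⟩
    have hzE := ((hE₁ z).1 (hZexp hz)).2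
    refine (hE₂ _).2 ⟨Subgroup.mem_inf.2 ⟨hA'P ?_, hA'C ?_⟩, ?_⟩
    · exact (le_iSup (fun d : {d : G // d ∈ N(P₁) ⊓ N(P₂)} => cj (d : G) Z) d) ⟨z, hz, rfl⟩
    · exact (le_iSup (fun d : {d : G // d ∈ N(P₁) ⊓ N(P₂)} => cj (d : G) Z) d) ⟨z, hz, rfl⟩
    · simp only [MulEquiv.coe_toMonoidHom, MulAut.conj_apply]
      rw [conj_pow, hzE]
      group
  rw [hAeq]
  have hAS : A' ≤ (S : Subgroup G) := hA'P.trans hP₁S
  have h𝓦 : ∀ V ∈ ({W₁, W₂} : Set (∀ (Q : Type u) [Group Q], Subgroup Q)), IsCharPFunctor.{u} p V := by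
    rintro _ (rfl | rfl)
    · exact hW₁
    · exact hW₂
  have hall := sctl_sections_of_constrained (G := G) (p := p)
    (𝓦 := {W₁, W₂}) h𝓦 (fun K R hR hc S A g hA hg =>
      cc_of_fact hW₁ hW₂ S (hfac K R hc S).2.2 A g hA hg)
  have htop := sctl_of_sections h𝓦 hall
  have hctl : ∀ (B : Set G) (g : G), B ⊆ (S : Subgroup G) → lc g B ⊆ (S : Subgroup G) →
      ∃ x ∈ N(A'), ∀ a ∈ B, x * a * x⁻¹ = g * a * g⁻¹ := by
    intro B g hB hg
    refine exists_of_cc N(A') (Q := Stp {W₁, W₂} (S : Subgroup G)) ?_ (htop S B g hB hg)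
    rintro y ⟨V, hV, hy⟩
    rcases hV with rfl | hV
    · exact hN₁A' hy
    · have hV' : V = W₂ := hV
      subst hV'
      exact hN₂A' hy
  refine ⟨hAS, ⟨⟨⟨fun a b => ?_⟩⟩, fun a ha => ((hE₂ a).1 (hA'E ha)).2⟩, ⟨hAS, fun x hx g hg => ?_⟩,
    ⟨S, hAS, fun B hB => ⟨hB, fun g hg => ?_⟩⟩⟩
  · apply Subtype.ext
    exact (Subgroup.mem_centralizer_iff.1 (hA'C a.2) (b : G) (hA'P b.2)).symm
  · obtain ⟨y, hy, hye⟩ := hctl {x} g (by
      rintro _ rfl
      exact hAS hx) (by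
      rintro _ ⟨_, rfl, rfl⟩
      exact hg)
    rw [← hye x rfl]
    exact (Subgroup.mem_normalizer_iff.1 hy x).1 hx
  · obtain ⟨y, hy, hye⟩ := hctl B g hB hg
    exact ⟨y, hy, fun a ha => (hye a ha).symm⟩

end Cfsg.Agent.Lib.StrongSec.TripleFac
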